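import Cfsg.Agent.H752.RgdIdx
import Cfsg.Agent.H69.OutTwD4
import Cfsg.Agent.H166.OutTwESix
import Cfsg.Agent.H430.CfChev
import Cfsg.Agent.H934.HeisTwD4
import Cfsg.Agent.H934.HeisTwE6
import Cfsg.Agent.S1071

/-!
# S5880, rows `³D₄(q)` and `²E₆(q)`
-/

set_option autoImplicit false
set_option linter.unusedSectionVars false
set_option maxHeartbeats 400000

namespace Cfsg.Agent.H752.RowTw

open CoxeterSystem Cfsg.Agent.ChevalleyStructure.CoxeterGeom Cfsg.Agent.Tits.Roots Cfsg.Agent.Tits.Core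
  Cfsg.Agent.Tits.Exchange Cfsg.Agent.Nodes.Reps Cfsg.Agent.Nodes.BNOf Cfsg.Agent.Nodes.StabComb
  Cfsg.Agent.Nodes.Bruhat Cfsg.Agent.Nodes.OppDec Cfsg.Agent.Nodes.RGDTwGen Cfsg.Agent.Nodes.RGDChev
  Cfsg.Agent.Nodes.RGDFold Cfsg.Agent.Nodes.RGDFoldSL Cfsg.Agent.Nodes.LeviDec
open Cfsg.Agent.KFacts.RgdOpp Cfsg.Agent.KFacts.RgdAut Cfsg.Agent.KFacts.RgdDiag Cfsg.Agent.KFacts.RgdRigid
  Cfsg.Agent.KFacts.RgdField Cfsg.Agent.KFacts.RgdTau Cfsg.Agent.KFacts.RgdNodes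
open Cfsg.Lie Cfsg.Agent.ChevalleyStructure
open Cfsg.Agent.H752.RgdIdx Cfsg.Agent.H430.CfBase
open Cfsg.Agent.H430.CfChev (carry sum_le)

universe u

/-- look up in a table -/
def look {l : ℕ} (tab : List ((Fin l → ℤ) × ℕ)) (r : Fin l → ℤ) : ℕ :=
  ((tab.find? fun p => p.1 = r).map Prod.snd).getD 0

theorem card_of_units {F : Type*} [Field F] [Finite F] {n : ℕ} (hn : 0 < n) (h : Nat.card Fˣ = n - 1) :
    Nat.card F = n := by
  rw [Nat.card_units] at h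
  have : 0 < Nat.card F := Nat.card_pos
  omega

/-! ### `³D₄(q)` -/

/-- the table -/
def tabD : List ((Fin 2 → ℤ) × ℕ) :=
  [(![2, 3], 0), (![1, 3], 1), (![1, 0], 4), (![-1, 0], 5), (![-1, -3], 8), (![-2, -3], 9)]

section D4

open Cfsg.Agent.KFacts.TwDFour.Out
open Cfsg.Agent.Nodes.RGDTwD4 Cfsg.Agent.Nodes.RGDTwNode.D4
open Cfsg.Agent.ParSys.Fam.D4 (hf)
open Cfsg.Agent.H69.OutCount Cfsg.Agent.H69.OutTwD4
open Cfsg.Agent.KFacts.TwESix.OutTwo (card_of_coord)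

theorem distD : DistOk A ![1, 3] ![2, 3] (tabD.map Prod.fst) (look tabD) := by
  constructor <;> decide +kernel

theorem domD : Dom A ![2, 3] := by
  show ∀ i, 0 ≤ pairing A i ![2, 3]
  decide +kernel

variable {K : Type u} [Field K] [Fintype K] {q : ℕ}

theorem hasInvD (hq : IsPrimePow q) (hK : Fintype.card K = q ^ 3) : HasInv ↥(twistedD4 K q) (2 * q ^ 9) := by
  obtain ⟨φ, hφ⟩ := D4Fixed.exists_frob hq hK
  obtain ⟨p, hp⟩ := CharP.exists K
  have hpf : Fact p.Prime := ⟨CharP.char_is_prime K p⟩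
  let cs : CoxeterSystem CoxeterMatrix.G₂ CoxeterMatrix.G₂.Group := CoxeterMatrix.G₂.toCoxeterSystem
  have hfin : Finite CoxeterMatrix.G₂.Group := finiteW cs
  have R := Cfsg.Agent.Nodes.RGDTwD4.rgd cs hK hφ p
  have hG1 : RGD.Sup (X φ q) {x | IsRoot cs isCartan x} = ⊤ := G1_eq_top cs hK hφ
  have hG := GG_eq_top (T := T K q) hG1
  have hfG : Finite ↥(twistedD4 K q) := inferInstance
  have hone : ∀ (β : MulAut ↥(twistedD4 K q)) (σ : Equiv.Perm (Fin 2)), Diag (T K q) (X φ q) β σ → σ = 1 := by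
    intro β σ D
    apply perm_G2 σ
    intro h3
    have h4 := Diag.card_eq D 0
    rw [h3] at h4
    exact card_ne hφ hK hq.one_lt h4
  have hX : ∀ i, Nat.card ↥(X φ q (sr i)) = q ^ (![1, 3] : Fin 2 → ℕ) i := by
    intro i
    rw [card_of_coord (coordD hφ hK i)]
    have hi : i = 0 ∨ i = 1 := by fin_cases i <;> simp
    rcases hi with rfl | rfl
    · show Nat.card (KD φ 0) = q ^ 1
      rw [pow_one]
      refine card_of_units hq.pos ?_
      rw [← D4H1.card_fixed hq.one_lt hK hφ]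
      exact Cfsg.Agent.H166.OutTwESix.card_units_subfield (KD φ 0) _ fun a => by rw [mem_Fx]
    · show Nat.card (KD φ 1) = q ^ 3
      rw [F3_eq_top hK hφ, ← hK, ← Nat.card_eq_fintype_card]
      exact Nat.card_congr Subfield.topEquiv.toEquiv
  refine ⟨PJ cs isCartan (T K q) (X φ q) (orth cs isCartan ![2, 3]), PJ_ne_top R (i := 0) ?_,
    exists_conj R hG1 hone _, ?_⟩
  · rw [mem_orth]
    decide +kernel
  · refine (index_PJ_le R hG hq.pos (e := ![1, 3]) (by decide) hX domD distD).trans ?_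
    have h1 : ((tabD.map Prod.fst).map fun r => q ^ look tabD r) = [0, 1, 4, 5, 8, 9].map fun x => q ^ x := by
      rw [show [0, 1, 4, 5, 8, 9] = (tabD.map Prod.fst).map (look tabD) by decide +kernel, List.map_map]
      rfl
    rw [h1]
    exact (sum_le hq.one_lt _ 9 (by decide)).trans (Nat.mul_le_mul_right _ (by decide +kernel))

end D4

theorem row_3D4 {S : Type*} [Group S] [Finite S] [IsSimpleGroup S] (h : Cfsg.Lie.Iso3D4 S) : Row S := by
  obtain ⟨K, _, _, q, hq, hK, e⟩ := h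
  refine Row.of_nonempty e (Row.of_hasInv (hasInvD hq hK) fun L hL => ?_)
  refine le_trans ?_ (Cfsg.Agent.H934.HeisTwD4.bound_3D4 hq hK (Cfsg.Agent.S1071.result hq hK).1 L hL)
  rw [pow_succ q 9, mul_comm]
  exact Nat.mul_le_mul_left _ hq.two_le

/-! ### `²E₆(q)` -/

/-- the table -/
def tabE : List ((Fin 4 → ℤ) × ℕ) :=
  [(![2, 3, 4, 2], 0), (![1, 3, 4, 2], 1), (![1, 2, 4, 2], 2), (![1, 2, 2, 2], 4), (![1, 1, 2, 2], 5),
  (![0, 1, 2, 2], 6), (![1, 2, 2, 0], 6), (![1, 1, 2, 0], 7), (![0, 1, 2, 0], 8), (![1, 1, 0, 0], 9),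
  (![0, 1, 0, 0], 10), (![1, 0, 0, 0], 10), (![-1, 0, 0, 0], 11), (![0, -1, 0, 0], 11), (![-1, -1, 0, 0], 12),
  (![0, -1, -2, 0], 13), (![-1, -1, -2, 0], 14), (![-1, -2, -2, 0], 15), (![0, -1, -2, -2], 15),
  (![-1, -1, -2, -2], 16), (![-1, -2, -2, -2], 17), (![-1, -2, -4, -2], 19), (![-1, -3, -4, -2], 20),
  (![-2, -3, -4, -2], 21)]

section E6

open Cfsg.Agent.KFacts.TwESix.NodeCoord Cfsg.Agent.KFacts.TwESix.Out Cfsg.Agent.KFacts.TwESix.OutTwo
open Cfsg.Agent.Nodes.RGDTwE6 Cfsg.Agent.Nodes.RGDTwNode.E6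
open Cfsg.Agent.ChevalleyStructure.TwE6Basic (hE6 exists_frob)

theorem distE : DistOk A ![1, 1, 2, 2] ![2, 3, 4, 2] (tabE.map Prod.fst) (look tabE) := by
  constructor <;> decide +kernel

theorem domE : Dom A ![2, 3, 4, 2] := by
  show ∀ i, 0 ≤ pairing A i ![2, 3, 4, 2]
  decide +kernel

variable {K : Type u} [Field K] [Fintype K] {q : ℕ}

theorem hasInvE (hq : IsPrimePow q) (hK : Fintype.card K = q ^ 2) : HasInv ↥(twistedE6 K q) (2 * q ^ 21) := by
  obtain ⟨φ, hφ, hqq⟩ := exists_frob hq hK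
  obtain ⟨p, hp⟩ := CharP.exists K
  have hpf : Fact p.Prime := ⟨CharP.char_is_prime K p⟩
  have hW : Finite CoxeterMatrix.F₄.Group :=
    Cfsg.Agent.Nodes.RGDFold.finite_W (hp := Cfsg.Agent.Nodes.RGDTwE6.hp) CoxeterMatrix.F₄.toCoxeterSystem
      Cfsg.Agent.Nodes.RGDTwE6.isCartan Cfsg.Agent.Nodes.RGDTwE6.foldData
  let cs : CoxeterSystem CoxeterMatrix.F₄ CoxeterMatrix.F₄.Group := CoxeterMatrix.F₄.toCoxeterSystem
  have R := Cfsg.Agent.Nodes.RGDTwE6.rgd cs hφ hqq p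
  have hG1 := Cfsg.Agent.KFacts.TwESix.OutTwo.G1_top cs hφ hqq
  have hG := GG_eq_top (T := T K q) hG1
  have hfG : Finite ↥(twistedE6 K q) := inferInstance
  have hone : ∀ (β : MulAut ↥(twistedE6 K q)) (σ : Equiv.Perm (Fin 4)), Diag (T K q) (X φ q) β σ → σ = 1 := by
    intro β σ D
    apply perm_F4 σ (D.matrix R)
    intro h3
    have h4 := Diag.card_eq D 0
    rw [h3] at h4
    exact card_ne hφ hqq hK hq.one_lt h4
  have h1 : Nat.card ↥(Fx φ 1) = q ^ 1 := by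
    rw [pow_one]
    exact card_of_units hq.pos (Cfsg.Agent.H166.OutTwESix.card_units_long hφ hK hq.one_lt)
  have h2 : Nat.card ↥(Fx φ 2) = q ^ 2 := by
    rw [F2_eq_top hφ hqq, ← hK, ← Nat.card_eq_fintype_card]
    exact Nat.card_congr Subfield.topEquiv.toEquiv
  have hX : ∀ i, Nat.card ↥(X φ q (sr i)) = q ^ (![1, 1, 2, 2] : Fin 4 → ℕ) i := by
    intro i
    rw [card_of_coord (coordE hφ hqq i)]
    have hi : i = 0 ∨ i = 1 ∨ i = 2 ∨ i = 3 := by fin_cases i <;> simp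
    rcases hi with rfl | rfl | rfl | rfl
    · exact h1
    · exact h1
    · exact h2
    · exact h2
  refine ⟨PJ cs isCartan (T K q) (X φ q) (orth cs isCartan ![2, 3, 4, 2]), PJ_ne_top R (i := 0) ?_,
    exists_conj R hG1 hone _, ?_⟩
  · rw [mem_orth]
    decide +kernel
  · refine (index_PJ_le R hG hq.pos (e := ![1, 1, 2, 2]) (by decide) hX domE distE).trans ?_
    have h1 : ((tabE.map Prod.fst).map fun r => q ^ look tabE r) =
        [0, 1, 2, 4, 5, 6, 6, 7, 8, 9, 10, 10, 11, 11, 12, 13, 14, 15, 15, 16, 17, 19, 20, 21].map fun x => q ^ x := by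
      rw [show [0, 1, 2, 4, 5, 6, 6, 7, 8, 9, 10, 10, 11, 11, 12, 13, 14, 15, 15, 16, 17, 19, 20, 21] =
        (tabE.map Prod.fst).map (look tabE) by decide +kernel, List.map_map]
      rfl
    rw [h1]
    exact (sum_le hq.one_lt _ 21 (by decide)).trans (Nat.mul_le_mul_right _ (by decide +kernel))

end E6

theorem row_2E6 {S : Type*} [Group S] [Finite S] [IsSimpleGroup S] (h : Cfsg.Lie.Iso2E6 S) : Row S := by
  obtain ⟨K, _, _, q, hq, hK, e⟩ := h
  refine Row.of_nonempty e (Row.of_hasInv (hasInvE hq hK) fun L hL => ?_)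
  have hs : IsSimpleGroup ↥(twistedE6 K q) := e.some.isSimpleGroup_congr.1 inferInstance
  refine le_trans ?_ (Cfsg.Agent.H934.HeisTwE6.bound_2E6 hq hK hs L hL)
  rw [pow_succ q 21, mul_comm]
  exact Nat.mul_le_mul_left _ hq.two_le

end Cfsg.Agent.H752.RowTw
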